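import Cfsg.Agent.Lib.Helper99.C64.Defs

/-!
# Project C64 (S6000): package [FRAME]

`N(R)` is a `GL_4`-conjugate of `N(R0 ι)`, from [STRUCT], [GENS], [BASIS].
-/

set_option autoImplicit false
open scoped MatrixGroups Matrix

namespace Cfsg.Agent.Lib.Helper4.C64

open Cfsg.Agent.Lib.Helper99.C64

universe u

theorem fourth_root_cases {F : Type u} [Field F] (ι c : F) (hι : ι ^ 2 = -1) (hc : c ^ 4 = 1) :
    ∃ k : ℕ, c = ι ^ k := by
  have h : (c - 1) * ((c + 1) * ((c - ι) * (c + ι))) = 0 := by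
    linear_combination hc - (c ^ 2 - 1) * hι
  rcases mul_eq_zero.mp h with h | h
  · exact ⟨0, by rw [pow_zero]; exact sub_eq_zero.mp h⟩
  · rcases mul_eq_zero.mp h with h | h
    · exact ⟨2, by rw [hι]; exact eq_neg_of_add_eq_zero_left h⟩
    · rcases mul_eq_zero.mp h with h | h
      · exact ⟨1, by rw [pow_one]; exact sub_eq_zero.mp h⟩
      · refine ⟨3, ?_⟩
        have h3 : ι ^ 3 = -ι := by
          have : ι ^ 3 = ι ^ 2 * ι := by ring
          rw [this, hι]; ring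
        rw [h3]; exact eq_neg_of_add_eq_zero_left h

theorem pkgFrame_of (h1 : PkgStruct.{u}) (h2 : PkgGens.{u}) (h3 : PkgBasis.{u}) :
    PkgFrame.{u} := by
  intro F _ _ p _ _ hcard hp4 R hR hR6
  obtain ⟨hSq, hComm⟩ := h1 F p hcard hp4 R hR hR6
  obtain ⟨ι, hι, a1, b1, a2, b2, ha1, hb1, ha2, hb2, ⟨z, hzR, hz⟩, hrel, hword⟩ :=
    h2 F p hcard hp4 R hR hR6 hSq hComm
  have h2ne : (2 : F) ≠ 0 := by
    intro h
    have h' : ((2 : ℕ) : F) = 0 := by exact_mod_cast h
    rw [CharP.cast_eq_zero_iff F p 2] at h'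
    have hp2 : p ≤ 2 := Nat.le_of_dvd (by norm_num) h'
    have hp1 : 2 ≤ p := (Fact.out : p.Prime).two_le
    have : p = 2 := le_antisymm hp2 hp1
    rw [this] at hp4
    norm_num at hp4
  obtain ⟨h, hA1, hB1, hA2, hB2⟩ :=
    h3 F h2ne (a1 : M4 F) (b1 : M4 F) (a2 : M4 F) (b2 : M4 F) hrel
  refine ⟨ι, hι, h, ?_⟩
  -- the conjugation homomorphism
  obtain ⟨φ, hφ⟩ : ∃ φ : GL (Fin 4) F →* GL (Fin 4) F, ∀ g, φ g = h⁻¹ * g * h :=
    ⟨(MulAut.conj h⁻¹).toMonoidHom, fun g => by simp⟩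
  have hφinj : Function.Injective φ := by
    intro x y hxy
    rw [hφ, hφ] at hxy
    have := congrArg (fun t => h * t * h⁻¹) hxy
    simpa [mul_assoc] using this
  have hφval : ∀ g : GL (Fin 4) F, ((φ g : GL (Fin 4) F) : M4 F) =
      ((h⁻¹ : GL (Fin 4) F) : M4 F) * (g : M4 F) * (h : M4 F) := by
    intro g; rw [hφ]; rfl
  have hzφ : ((φ z : GL (Fin 4) F) : M4 F) = ι • (1 : M4 F) := by
    rw [hφval, hz, Matrix.mul_smul, Matrix.mul_one, Matrix.smul_mul, ← Units.val_mul,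
      inv_mul_cancel]
    rfl
  have ha1φ : ((φ a1 : GL (Fin 4) F) : M4 F) = mZa F := by rw [hφval]; exact hA1
  have hb1φ : ((φ b1 : GL (Fin 4) F) : M4 F) = mXa F := by rw [hφval]; exact hB1
  have ha2φ : ((φ a2 : GL (Fin 4) F) : M4 F) = mZb F := by rw [hφval]; exact hA2
  have hb2φ : ((φ b2 : GL (Fin 4) F) : M4 F) = mXb F := by rw [hφval]; exact hB2
  have hgen : ∀ g : GL (Fin 4) F, (g : M4 F) ∈ gens ι → g ∈ R0 ι := fun g hg =>
    Subgroup.subset_closure hg
  have hzR0 : φ z ∈ R0 ι := hgen _ (by rw [hzφ]; simp [gens])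
  have ha1R0 : φ a1 ∈ R0 ι := hgen _ (by rw [ha1φ]; simp [gens])
  have hb1R0 : φ b1 ∈ R0 ι := hgen _ (by rw [hb1φ]; simp [gens])
  have ha2R0 : φ a2 ∈ R0 ι := hgen _ (by rw [ha2φ]; simp [gens])
  have hb2R0 : φ b2 ∈ R0 ι := hgen _ (by rw [hb2φ]; simp [gens])
  -- R is the conjugate of R0
  have hmem : ∀ y, y ∈ R ↔ h⁻¹ * y * h ∈ R0 ι := by
    intro y
    rw [← hφ]
    constructor
    · intro hy
      obtain ⟨c, e1, e2, e3, e4, hc, hyv⟩ := hword y hy
      obtain ⟨k, hk⟩ := fourth_root_cases ι c hι hc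
      have hyw : y = z ^ k * a1 ^ e1 * b1 ^ e2 * a2 ^ e3 * b2 ^ e4 := by
        apply Units.ext
        rw [hyv, Units.val_mul, Units.val_mul, Units.val_mul, Units.val_mul,
          Units.val_pow_eq_pow_val, Units.val_pow_eq_pow_val, Units.val_pow_eq_pow_val,
          Units.val_pow_eq_pow_val, Units.val_pow_eq_pow_val, hz, smul_pow, one_pow, hk]
        simp only [Matrix.smul_mul, Matrix.one_mul]
      rw [hyw]
      simp only [map_mul, map_pow]
      exact Subgroup.mul_mem _ (Subgroup.mul_mem _ (Subgroup.mul_mem _ (Subgroup.mul_mem _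
        (Subgroup.pow_mem _ hzR0 k) (Subgroup.pow_mem _ ha1R0 e1)) (Subgroup.pow_mem _ hb1R0 e2))
        (Subgroup.pow_mem _ ha2R0 e3)) (Subgroup.pow_mem _ hb2R0 e4)
    · intro hy
      have hle : R0 ι ≤ R.map φ := by
        unfold R0
        rw [Subgroup.closure_le]
        intro g hg
        have hg' : (g : M4 F) ∈ gens ι := hg
        unfold gens at hg'
        rcases hg' with hg' | hg' | hg' | hg' | hg'
        · have : g = φ z := Units.ext (hg'.trans hzφ.symm)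
          rw [this]; exact Subgroup.mem_map_of_mem φ hzR
        · have : g = φ a1 := Units.ext (hg'.trans ha1φ.symm)
          rw [this]; exact Subgroup.mem_map_of_mem φ ha1
        · have : g = φ b1 := Units.ext (hg'.trans hb1φ.symm)
          rw [this]; exact Subgroup.mem_map_of_mem φ hb1
        · have : g = φ a2 := Units.ext (hg'.trans ha2φ.symm)
          rw [this]; exact Subgroup.mem_map_of_mem φ ha2
        · rw [Set.mem_singleton_iff] at hg'
          have : g = φ b2 := Units.ext (hg'.trans hb2φ.symm)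
          rw [this]; exact Subgroup.mem_map_of_mem φ hb2
      exact (Subgroup.mem_map_iff_mem hφinj).mp (hle hy)
  -- transport of the normalizer
  intro y
  show y ∈ Subgroup.normalizer (R : Set (GL (Fin 4) F)) ↔
    h⁻¹ * y * h ∈ Subgroup.normalizer ((R0 ι : Subgroup (GL (Fin 4) F)) : Set (GL (Fin 4) F))
  rw [Subgroup.mem_normalizer_iff, Subgroup.mem_normalizer_iff]
  constructor
  · intro hy g
    have h1' := hy (h * g * h⁻¹)
    rw [hmem, hmem] at h1'
    have e1 : h⁻¹ * (h * g * h⁻¹) * h = g := by group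
    have e2 : h⁻¹ * (y * (h * g * h⁻¹) * y⁻¹) * h = h⁻¹ * y * h * g * (h⁻¹ * y * h)⁻¹ := by group
    rw [e1, e2] at h1'
    exact h1'
  · intro hy g
    have h1' := hy (h⁻¹ * g * h)
    have e2 : h⁻¹ * y * h * (h⁻¹ * g * h) * (h⁻¹ * y * h)⁻¹ = h⁻¹ * (y * g * y⁻¹) * h := by group
    rw [e2] at h1'
    rw [hmem g, hmem (y * g * y⁻¹)]
    exact h1'

end Cfsg.Agent.Lib.Helper4.C64
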